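import Mathlib
import Cfsg.Agent.H613.KS.Defs
import Cfsg.Agent.H323.KKL.LieTwo

/-!
# S4577: elementary criteria for the configuration `KS.Cfg` (helper961)

The 16-version of `H323/KKL/Crit.lean`.

* `D1` : characteristic two: `D` is a Sylow 2-subgroup of `S`, `x = 1`, `C_S(z)` normalises `D`;
* `D2` : normal 2-subgroups of `C(z)`, `z ∈ D`;
* `D3` : the 2-subgroups of `C(x)`;
* `five_dvd` : `80` divides the order of the normalizer of `D`.
-/

set_option autoImplicit false

open Cfsg Cfsg.Agent.H613.KS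

universe u

namespace Cfsg.Agent.H961.KS

open Cfsg.Agent.H323.KKL (eq_one_of_odd centralizer_zpowers mem_normalizer_zpowers)

section basic

variable {S : Type u} [Group S] {D : Subgroup S} {x : S}

theorem E16.comm (h : E16 D) : ∀ a ∈ D, ∀ b ∈ D, a * b = b * a := by
  intro a ha b hb
  have h1 := h.inv a ha
  have h2 := h.inv b hb
  have h3 := h.inv (a * b) (D.mul_mem ha hb)
  have e1 : a⁻¹ = a := inv_eq_of_mul_eq_one_left h1
  have e2 : b⁻¹ = b := inv_eq_of_mul_eq_one_left h2
  have e3 : (a * b)⁻¹ = a * b := inv_eq_of_mul_eq_one_left h3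
  rw [mul_inv_rev, e1, e2] at e3
  exact e3.symm

theorem E16.isPGroup (h : E16 D) : IsPGroup 2 D := IsPGroup.of_card (n := 4) (by rw [h.card]; norm_num)

theorem E16.exists_ne_one (h : E16 D) : ∃ z ∈ D, z ≠ 1 := by
  by_contra hc
  push Not at hc
  have h1 : D = ⊥ := (Subgroup.eq_bot_iff_forall D).2 hc
  have h2 := h.card
  rw [h1, Subgroup.card_bot] at h2
  norm_num at h2

/-- `rad` for a single element -/
theorem rad_single (h : Cfg D x) {z : S} (hz : z ∈ D)
    {N : Subgroup S} (hN2 : IsPGroup 2 N) (hNz : N ≤ Subgroup.centralizer {z})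
    (hNn : ∀ c ∈ Subgroup.centralizer ({z} : Set S), ∀ n ∈ N, c * n * c⁻¹ ∈ N) : N ≤ D := by
  refine h.rad (Subgroup.zpowers z) (by rwa [Subgroup.zpowers_le]) N hN2 ?_ ?_
  · rw [centralizer_zpowers]; exact hNz
  · rw [centralizer_zpowers]; exact hNn

/-- the element `y` is not trivial -/
theorem five_dvd_orderOf (h : E16 D) {y : S} (hy : Five D y) : 5 ∣ orderOf y := by
  obtain ⟨m, hm⟩ := hy.five
  rcases Nat.eq_zero_or_pos m with h0 | h0
  · exfalso
    rw [h0, pow_zero, orderOf_eq_one_iff] at hm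
    obtain ⟨z, hz, hz1⟩ := E16.exists_ne_one h
    have hA : Subgroup.zpowers z ≤ D := by rwa [Subgroup.zpowers_le]
    rcases hy.irr _ hA (fun a ha => by rw [hm]; simpa using ha) with h1 | h1
    · exact hz1 (Subgroup.zpowers_eq_bot.1 h1)
    · have h2 := h.card
      rw [← h1, Nat.card_zpowers, orderOf_eq_prime (p := 2) (by rw [pow_two, h.inv z hz]) hz1] at h2
      norm_num at h2
  · rw [hm]
    exact dvd_pow_self 5 (Nat.pos_iff_ne_zero.1 h0)

theorem Five.mem_normalizer {y : S} (hy : Five D y) : y ∈ Subgroup.normalizer (D : Set S) := by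
  rw [Subgroup.mem_normalizer_iff]
  exact fun d => (hy.norm d).symm

/-- `80` divides the order of the normalizer of `D` -/
theorem eighty_dvd [Finite S] (hc : Cfg D x) : 80 ∣ Nat.card ↥(Subgroup.normalizer (D : Set S)) := by
  obtain ⟨y, hy⟩ := hc.five
  have hyN := Five.mem_normalizer hy
  have h5 : 5 ∣ Nat.card ↥(Subgroup.normalizer (D : Set S)) := by
    have h5 := five_dvd_orderOf hc.e16 hy
    have h6 : orderOf y = orderOf (⟨y, hyN⟩ : ↥(Subgroup.normalizer (D : Set S))) := (Subgroup.orderOf_mk y hyN).symm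
    rw [h6] at h5
    exact h5.trans (orderOf_dvd_natCard _)
  have h16 : 16 ∣ Nat.card ↥(Subgroup.normalizer (D : Set S)) := by
    rw [← hc.e16.card]
    exact Subgroup.card_dvd_of_le Subgroup.le_normalizer
  exact (Nat.Coprime.mul_dvd_of_dvd_of_dvd (by norm_num : Nat.Coprime 5 16) h5 h16)

end basic

/-- the Sylow 2-subgroups of `S` have order 16 if `x = 1` -/
theorem card_two_of_x {S : Type u} [Group S] [Finite S] {D : Subgroup S} {x : S} (h : Cfg D x) (hx : x = 1) :
    (Nat.card S).factorization 2 = 4 := by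
  haveI : Fact (Nat.Prime 2) := ⟨Nat.prime_two⟩
  obtain ⟨P⟩ : Nonempty (Sylow 2 S) := inferInstance
  obtain ⟨c, -, hc⟩ := h.syl (P : Subgroup S) P.isPGroup' (by intro q _; rw [hx, mul_one, one_mul])
  have h1 : Nat.card (P : Subgroup S) ≤ Nat.card D := by
    refine Nat.card_le_card_of_injective (fun q : (P : Subgroup S) => (⟨c * q * c⁻¹, hc q q.2⟩ : D)) ?_
    intro q r hqr
    have h2 : c * (q : S) * c⁻¹ = c * (r : S) * c⁻¹ := congrArg Subtype.val hqr
    exact Subtype.ext (mul_left_cancel (mul_right_cancel h2))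
  have h3 : Nat.card (P : Subgroup S) = 2 ^ (Nat.card S).factorization 2 := Sylow.card_eq_multiplicity P
  obtain ⟨P', hP'⟩ := (E16.isPGroup h.e16).exists_le_sylow
  have h4 : Nat.card D ∣ Nat.card (P' : Subgroup S) := Subgroup.card_dvd_of_le hP'
  rw [Sylow.card_eq_multiplicity P', h.e16.card] at h4
  rw [h3, h.e16.card] at h1
  have h5 : (2 : ℕ) ^ (Nat.card S).factorization 2 ≤ 2 ^ 4 := by simpa using h1
  have h6 : (2 : ℕ) ^ 4 ∣ 2 ^ (Nat.card S).factorization 2 := by simpa using h4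
  have h7 := (Nat.pow_le_pow_iff_right (by norm_num : 1 < 2)).1 h5
  have h8 := (Nat.pow_dvd_pow_iff_le_right (by norm_num : 1 < 2)).1 h6
  omega

/-- D1: characteristic 2: if `C_S(z)` has a normal 2-subgroup `N` containing its centralizer (in `C_S(z)`), `z ∈ D#`, then
`C_S(D) = D`, `x = 1`, `|S|_2 = 16` and `N = D`. -/
theorem D1 {S : Type u} [Group S] [Finite S] {D : Subgroup S} {x : S} (h : Cfg D x) {z : S} (hz : z ∈ D)
    {N : Subgroup S} (hN2 : IsPGroup 2 N) (hNz : N ≤ Subgroup.centralizer {z})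
    (hNn : ∀ c ∈ Subgroup.centralizer ({z} : Set S), ∀ n ∈ N, c * n * c⁻¹ ∈ N)
    (hC : ∀ c ∈ Subgroup.centralizer ({z} : Set S), (∀ n ∈ N, n * c = c * n) → c ∈ N) :
    x = 1 ∧ (Nat.card S).factorization 2 = 4 ∧ Subgroup.centralizer (D : Set S) = D ∧ N = D := by
  have hND : N ≤ D := rad_single h hz hN2 hNz hNn
  have hcomm := E16.comm h.e16
  have hDN : D ≤ N := by
    intro d hd
    refine hC d (Subgroup.mem_centralizer_singleton_iff.2 (hcomm d hd z hz)) ?_
    intro n hn
    exact hcomm n (hND hn) d hd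
  have hcen : Subgroup.centralizer (D : Set S) ≤ D := by
    intro g hg
    rw [Subgroup.mem_centralizer_iff] at hg
    refine hND (hC g (Subgroup.mem_centralizer_singleton_iff.2 (hg z hz).symm) ?_)
    intro n hn
    exact hg n (hND hn)
  have hx : x = 1 := by
    have h1 : x ∈ D := hcen (Subgroup.mem_centralizer_iff.2 h.comm)
    exact eq_one_of_odd (h.e16.inv x h1) h.odd
  refine ⟨hx, card_two_of_x h hx, le_antisymm hcen ?_, le_antisymm hND hDN⟩
  intro d hd
  rw [Subgroup.mem_centralizer_iff]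
  intro e he
  exact hcomm e he d hd

/-- D2: cheap kills: a normal 2-subgroup of `C_S(z)` of order `≥ 32`, or with an element of order 4. -/
theorem D2 {S : Type u} [Group S] [Finite S] {D : Subgroup S} {x : S} (h : Cfg D x) {z : S} (hz : z ∈ D)
    {N : Subgroup S} (hN2 : IsPGroup 2 N) (hNz : N ≤ Subgroup.centralizer {z})
    (hNn : ∀ c ∈ Subgroup.centralizer ({z} : Set S), ∀ n ∈ N, c * n * c⁻¹ ∈ N) :
    Nat.card N ≤ 16 ∧ ∀ n ∈ N, n * n = 1 := by
  have hND : N ≤ D := rad_single h hz hN2 hNz hNn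
  refine ⟨?_, fun n hn => h.e16.inv n (hND hn)⟩
  rw [← h.e16.card]
  exact Subgroup.card_le_of_le hND

/-- D3: 2-subgroups of `C_S(x)` have order at most 16, exponent 2. -/
theorem D3 {S : Type u} [Group S] [Finite S] {D : Subgroup S} {x : S} (h : Cfg D x) :
    (∀ Q : Subgroup S, IsPGroup 2 Q → (∀ q ∈ Q, q * x = x * q) → Nat.card Q ≤ 16 ∧ ∀ q ∈ Q, q * q = 1) := by
  intro Q hQ hQx
  obtain ⟨c, -, hc⟩ := h.syl Q hQ hQx
  refine ⟨?_, ?_⟩
  · rw [← h.e16.card]
    refine Nat.card_le_card_of_injective (fun q : Q => (⟨c * q * c⁻¹, hc q q.2⟩ : D)) ?_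
    intro q r hqr
    have h2 : c * (q : S) * c⁻¹ = c * (r : S) * c⁻¹ := congrArg Subtype.val hqr
    exact Subtype.ext (mul_left_cancel (mul_right_cancel h2))
  · intro q hq
    have h1 := h.e16.inv _ (hc q hq)
    have h2 : c * (q * q) * c⁻¹ = 1 := by
      rw [← h1]; group
    have h3 : c * (q * q) = c := by
      have := congrArg (· * c) h2
      simpa using this
    simpa using h3

end Cfsg.Agent.H961.KS
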