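import Cfsg.Agent.H961.KS.Crit
import Cfsg.Agent.H400.LieLocal
import Cfsg.Agent.H126.OrdEight
import Cfsg.Agent.LieClassical.FieldTransfer

/-!
# S4577: the groups of Lie type of characteristic two (helper961)

`E_lie2` : a configuration in a group of Lie type of characteristic two occurs only in `PSL₂(16)`.
-/

set_option autoImplicit false

open Cfsg Cfsg.Agent.H613.KS Subgroup

universe u

namespace Cfsg.Agent.H961.KS

open Cfsg.Agent.H323.KKL (mem_normalizer_zpowers)

variable {S : Type u} [Group S] {D : Subgroup S} {x : S}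

/-- characteristic two local subgroups -/
theorem of_locChar [Finite S] (hl : Cfsg.Agent.BpLieP.Big.LocChar 2 S) (hc : Cfg D x) :
    x = 1 ∧ ∀ z ∈ D, z ≠ 1 → ∀ g : S, g * z = z * g → g ∈ normalizer (D : Set S) := by
  have key : ∀ z ∈ D, z ≠ 1 → x = 1 ∧ ∀ g : S, g * z = z * g → g ∈ normalizer (D : Set S) := by
    intro z hz hz1
    have hzz := hc.e16.inv z hz
    obtain ⟨Z, hZ⟩ : ∃ Z : Subgroup S, Z = zpowers z := ⟨_, rfl⟩
    obtain ⟨N, hN⟩ : ∃ N : Subgroup S, N = normalizer (Z : Set S) := ⟨_, rfl⟩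
    have hNm : ∀ g : S, g ∈ N ↔ g * z = z * g := by
      intro g; rw [hN, hZ]; exact mem_normalizer_zpowers hzz g
    have hZ2 : IsPGroup 2 Z := by
      refine IsPGroup.of_card (n := 1) ?_
      rw [hZ, Nat.card_zpowers, pow_one]
      exact orderOf_eq_prime (by rw [pow_two, hzz]) hz1
    have hZ1 : Z ≠ ⊥ := by
      rw [hZ]
      intro h0
      exact hz1 (zpowers_eq_bot.1 h0)
    have hch := hl Z hZ2 hZ1
    rw [← hN] at hch
    have : Fact (Nat.Prime 2) := ⟨Nat.prime_two⟩
    have hOn : (pCore 2 ↥N).Normal := Lib.Cores.pCore_normal 2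
    have hnorm : ∀ c ∈ Subgroup.centralizer ({z} : Set S), ∀ n ∈ (pCore 2 ↥N).map N.subtype,
        c * n * c⁻¹ ∈ (pCore 2 ↥N).map N.subtype := by
      rintro c hcz _ ⟨n, hn, rfl⟩
      have hcN : c ∈ N := (hNm c).2 (mem_centralizer_singleton_iff.1 hcz)
      exact ⟨⟨c, hcN⟩ * n * ⟨c, hcN⟩⁻¹, hOn.conj_mem n hn _, rfl⟩
    obtain ⟨h1, -, -, h4⟩ := D1 hc hz (N := (pCore 2 ↥N).map N.subtype) ((Lib.Cores.pCore_isPGroup 2).map _)
      (by
        rintro _ ⟨n, -, rfl⟩
        exact mem_centralizer_singleton_iff.2 ((hNm _).1 n.2)) hnorm (by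
        intro c hcz hcn
        have hcN : c ∈ N := (hNm c).2 (mem_centralizer_singleton_iff.1 hcz)
        refine ⟨⟨c, hcN⟩, hch ?_, rfl⟩
        rw [mem_centralizer_iff]
        intro n hn
        exact Subtype.ext (hcn n ⟨n, hn, rfl⟩))
    refine ⟨h1, fun g hg => ?_⟩
    rw [h4] at hnorm
    have hg' : g ∈ Subgroup.centralizer ({z} : Set S) := mem_centralizer_singleton_iff.2 hg
    rw [mem_normalizer_iff]
    intro d
    refine ⟨fun hd => hnorm g hg' d hd, fun hd => ?_⟩
    have h5 := hnorm g⁻¹ (inv_mem hg') _ hd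
    simpa [mul_assoc] using h5
  obtain ⟨z, hz, hz1⟩ := E16.exists_ne_one hc.e16
  exact ⟨(key z hz hz1).1, fun z hz hz1 => (key z hz hz1).2⟩

/-- TI Sylow 2-subgroups -/
theorem of_ti [Finite S]
    (ht : ∀ (P : Sylow 2 S) (g : S), (∃ y ∈ (P : Subgroup S), y ≠ 1 ∧ g⁻¹ * y * g ∈ (P : Subgroup S)) →
      ∀ y ∈ (P : Subgroup S), g⁻¹ * y * g ∈ (P : Subgroup S)) (hc : Cfg D x) :
    ∃ P : Sylow 2 S, (P : Subgroup S) = D := by
  have : Fact (Nat.Prime 2) := ⟨Nat.prime_two⟩
  obtain ⟨P, hP⟩ := (E16.isPGroup hc.e16).exists_le_sylow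
  obtain ⟨z, hz, hz1⟩ := E16.exists_ne_one hc.e16
  -- `C_P(w) = D` for `w ∈ D#`
  have h1 : ∀ w ∈ D, w ≠ 1 → ∀ g ∈ (P : Subgroup S), g * w = w * g → g ∈ D := by
    intro w hw hw1
    have h2 : ((P : Subgroup S) ⊓ centralizer ({w} : Set S)) ≤ D := by
      refine rad_single hc hw (P.isPGroup'.to_le inf_le_left) inf_le_right ?_
      rintro c hcw n ⟨hnP, hnw⟩
      have hnw' : n ∈ centralizer ({w} : Set S) := hnw
      refine ⟨?_, (centralizer ({w} : Set S)).mul_mem ((centralizer ({w} : Set S)).mul_mem hcw hnw')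
        ((centralizer ({w} : Set S)).inv_mem hcw)⟩
      have h3 := ht P c⁻¹ ⟨w, hP hw, hw1, by
        rw [inv_inv, (mem_centralizer_singleton_iff.1 hcw), mul_assoc, mul_inv_cancel, mul_one]
        exact hP hw⟩ n hnP
      rwa [inv_inv] at h3
    intro g hg hgw
    exact h2 ⟨hg, mem_centralizer_singleton_iff.2 hgw⟩
  -- the centre of `P`
  have : Nontrivial ↥(P : Subgroup S) := by
    refine ⟨⟨⟨z, hP hz⟩, 1, ?_⟩⟩
    intro h3
    exact hz1 (congrArg Subtype.val h3)
  have : Nontrivial ↥(center ↥(P : Subgroup S)) := P.isPGroup'.center_nontrivial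
  obtain ⟨c, hc1⟩ := exists_ne (1 : ↥(center ↥(P : Subgroup S)))
  obtain ⟨⟨c, hcP⟩, hcZ⟩ := c
  have hc1' : c ≠ 1 := fun h3 => hc1 (by subst h3; rfl)
  have hcc : ∀ g ∈ (P : Subgroup S), g * c = c * g := by
    intro g hg
    exact congrArg Subtype.val (mem_center_iff.1 hcZ ⟨g, hg⟩)
  have hcD : c ∈ D := h1 z hz hz1 c hcP (hcc z (hP hz)).symm
  have hPD : (P : Subgroup S) ≤ D := fun g hg => h1 c hcD hc1' g hg (hcc g hg)
  exact ⟨P, le_antisymm hPD hP⟩

/-- a Sylow 2-subgroup `D` of order 16 such that the centralizers of its involutions normalise it: the index of the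
normalizer is `1` modulo 16 -/
theorem index_mod [Finite S] (he : E16 D) (h4 : (Nat.card S).factorization 2 = 4)
    (hz : ∀ z ∈ D, z ≠ 1 → ∀ g : S, g * z = z * g → g ∈ normalizer (D : Set S)) :
    16 ∣ (normalizer (D : Set S)).index - 1 := by
  classical
  have : Fact (Nat.Prime 2) := ⟨Nat.prime_two⟩
  set N := normalizer (D : Set S) with hN
  -- `D ∩ gDg⁻¹ = 1` for `g ∉ N`
  have key : ∀ g : S, ∀ d ∈ D, d ≠ 1 → g⁻¹ * d * g ∈ D → g ∈ N := by
    intro g d hd hd1 hgd
    -- `gDg⁻¹` normalises `D`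
    have h1 : ∀ e ∈ D, g * e * g⁻¹ ∈ N := by
      intro e hge
      refine hz d hd hd1 _ ?_
      have h2 := E16.comm he e hge _ hgd
      calc g * e * g⁻¹ * d = g * (e * (g⁻¹ * d * g)) * g⁻¹ := by group
        _ = g * ((g⁻¹ * d * g) * e) * g⁻¹ := by rw [h2]
        _ = d * (g * e * g⁻¹) := by group
    -- `D` is the only Sylow 2-subgroup of `N`
    have h2 : ∀ e ∈ D, g * e * g⁻¹ ∈ D := by
      intro e hge
      let E : Subgroup S := D.map (MulAut.conj g).toMonoidHom
      have hEN : E ≤ N := by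
        rintro _ ⟨a, ha, rfl⟩
        exact h1 a ha
      have hE2 : IsPGroup 2 E := (E16.isPGroup he).map _
      have hDE : IsPGroup 2 ↥(D ⊔ E) := IsPGroup.to_sup_of_normal_left' (E16.isPGroup he) hE2 hEN
      obtain ⟨P, hP⟩ := hDE.exists_le_sylow
      have h5 : Nat.card (P : Subgroup S) = 2 ^ (Nat.card S).factorization 2 := Sylow.card_eq_multiplicity P
      have h6 : D = (P : Subgroup S) := by
        refine Subgroup.eq_of_le_of_card_ge (le_sup_left.trans hP) ?_
        rw [h5, h4, he.card]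
        norm_num
      exact h6.ge (hP (le_sup_right (a := D) (⟨e, hge, rfl⟩ : g * e * g⁻¹ ∈ E)))
    rw [hN, mem_normalizer_iff]
    have h3 : D.map (MulAut.conj g).toMonoidHom = D := by
      refine Subgroup.eq_of_le_of_card_ge ?_ ?_
      · rintro _ ⟨a, ha, rfl⟩
        exact h2 a ha
      · exact (Nat.card_congr (D.equivMapOfInjective _ (MulAut.conj g).injective).toEquiv).le
    intro e
    refine ⟨h2 e, fun h => ?_⟩
    rw [← h3] at h
    obtain ⟨a, ha, hae⟩ := h
    have h4 : g * a * g⁻¹ = g * e * g⁻¹ := hae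
    have h5 : a = e := mul_left_cancel (mul_right_cancel h4)
    exact h5 ▸ ha
  -- `D` acts freely on the other cosets
  let X := {c : S ⧸ N // c ≠ ((1 : S) : S ⧸ N)}
  have hDN : ∀ d ∈ D, d ∈ N := fun d hd => le_normalizer hd
  have hone : ∀ d ∈ D, ((d : S) : S ⧸ N) = ((1 : S) : S ⧸ N) := by
    intro d hd
    rw [QuotientGroup.eq, mul_one]
    exact inv_mem (hDN d hd)
  let act : MulAction D X :=
    { smul := fun d c => ⟨(d : S) • c.1, by
        intro h
        apply c.2
        have h1 : c.1 = (d : S)⁻¹ • ((d : S) • c.1) := (inv_smul_smul (d : S) c.1).symm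
        have h2 : (d : S)⁻¹ • ((d : S) • c.1) = (((d : S)⁻¹ * 1 : S) : S ⧸ N) := congrArg (fun w => (d : S)⁻¹ • w) h
        exact h1.trans (h2.trans ((congrArg (fun s : S => (s : S ⧸ N)) (mul_one _)).trans (hone _ (inv_mem d.2))))⟩
      one_smul := fun c => Subtype.ext (one_smul S c.1)
      mul_smul := fun d e c => Subtype.ext (mul_smul (d : S) (e : S) c.1) }
  have hsm : ∀ (d : D) (c : X), (d • c).1 = (d : S) • c.1 := fun _ _ => rfl
  have hst : ∀ c : X, MulAction.stabilizer D c = ⊥ := by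
    intro c
    rw [eq_bot_iff]
    intro d hd
    rw [MulAction.mem_stabilizer_iff, Subtype.ext_iff, hsm] at hd
    obtain ⟨g, hg⟩ := QuotientGroup.mk_surjective c.1
    rw [← hg] at hd
    have h1 : g⁻¹ * ((d : S) * g) ∈ N := by
      have h2 : (((d : S) * g : S) : S ⧸ N) = ((g : S) : S ⧸ N) := hd
      exact QuotientGroup.eq.1 h2.symm
    by_contra hd1
    have hd1' : (d : S) ≠ 1 := fun h => hd1 (by rw [Subgroup.mem_bot]; exact Subtype.ext h)
    -- `g⁻¹ d g ∈ N` is a 2-element, so in `D`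
    have h3 : g⁻¹ * (d : S) * g ∈ D := by
      have h9 : g⁻¹ * (d : S) * g ∈ N := by rwa [mul_assoc]
      have hE2 : IsPGroup 2 (zpowers (g⁻¹ * (d : S) * g)) := by
        refine IsPGroup.of_card (n := 1) ?_
        rw [Nat.card_zpowers, pow_one]
        refine orderOf_eq_prime ?_ ?_
        · rw [pow_two]
          calc g⁻¹ * (d : S) * g * (g⁻¹ * (d : S) * g) = g⁻¹ * ((d : S) * d) * g := by group
            _ = 1 := by rw [he.inv _ d.2]; group
        · intro h5
          apply hd1'
          have : (d : S) = g * (g⁻¹ * (d : S) * g) * g⁻¹ := by group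
          rw [this, h5]
          group
      have hEN : zpowers (g⁻¹ * (d : S) * g) ≤ N := by rwa [zpowers_le]
      have hDE : IsPGroup 2 ↥(D ⊔ zpowers (g⁻¹ * (d : S) * g)) :=
        IsPGroup.to_sup_of_normal_left' (E16.isPGroup he) hE2 hEN
      obtain ⟨P, hP⟩ := hDE.exists_le_sylow
      have h5 : Nat.card (P : Subgroup S) = 2 ^ (Nat.card S).factorization 2 := Sylow.card_eq_multiplicity P
      have h6 : D = (P : Subgroup S) := by
        refine Subgroup.eq_of_le_of_card_ge (le_sup_left.trans hP) ?_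
        rw [h5, h4, he.card]
        norm_num
      exact h6.ge (hP (le_sup_right (a := D) (mem_zpowers _)))
    have h7 := key g d d.2 hd1' h3
    apply c.2
    rw [← hg, QuotientGroup.eq, mul_one]
    exact inv_mem h7
  have := Fintype.ofFinite D
  have := Fintype.ofFinite X
  have : Fintype (MulAction.orbitRel.Quotient D X) := Fintype.ofFinite _
  have hX : Nat.card X = N.index - 1 := by
    have h1 : Nat.card X = Set.ncard ((Set.univ : Set (S ⧸ N)) \ {((1 : S) : S ⧸ N)}) := by
      rw [← Nat.card_coe_set_eq]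
      refine Nat.card_congr (Equiv.subtypeEquivRight fun c => ?_)
      simp
    rw [h1, Set.ncard_sdiff_singleton_of_mem (Set.mem_univ _), Set.ncard_univ]
    rfl
  rw [← hX, Nat.card_eq_fintype_card, MulAction.card_eq_sum_card_group_div_card_stabilizer D X]
  refine Finset.dvd_sum fun ω _ => ?_
  have h1 : Fintype.card (MulAction.stabilizer D ω.out) = 1 := by
    rw [← Nat.card_eq_fintype_card, hst, Subgroup.card_bot]
  rw [h1, Nat.div_one, ← Nat.card_eq_fintype_card, he.card]

/-- no simple group of order at most 1625 with a configuration with self-centralizing involutions -/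
theorem small [Finite S] [IsSimpleGroup S] (hc : Cfg D x) (h4 : (Nat.card S).factorization 2 = 4)
    (hz : ∀ z ∈ D, z ≠ 1 → ∀ g : S, g * z = z * g → g ∈ normalizer (D : Set S))
    (hlt : Nat.card S ^ 3 < 2 ^ 32) : False := by
  have h80 := eighty_dvd hc
  have h16 := index_mod hc.e16 h4 hz
  obtain ⟨N, hN⟩ : ∃ N : Subgroup S, N = normalizer (D : Set S) := ⟨_, rfl⟩
  rw [← hN] at h80 h16
  obtain ⟨a, ha⟩ := h80
  have hidx : Nat.card N * N.index = Nat.card S := card_mul_index N
  have hpos : 0 < Nat.card S := Nat.card_pos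
  have hi0 : N.index ≠ 0 := by
    intro h0; rw [h0, mul_zero] at hidx; omega
  have ha0 : a ≠ 0 := by
    intro h0; rw [h0, mul_zero] at ha; rw [ha, zero_mul] at hidx; omega
  have hle : Nat.card S ≤ 1625 := by
    by_contra h
    push Not at h
    have h5 : 1626 ^ 3 ≤ Nat.card S ^ 3 := Nat.pow_le_pow_left h 3
    norm_num at h5 hlt
    omega
  have hcase : N.index = 1 ∨ (N.index = 17 ∧ a = 1) := by
    rw [← hidx, ha] at hle
    have h5 : a * N.index ≤ 20 := by
      by_contra h6
      push Not at h6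
      nlinarith
    have h6 : N.index ≤ 20 := le_trans (Nat.le_mul_of_pos_left _ (Nat.pos_of_ne_zero ha0)) h5
    have h7 : N.index = 1 ∨ N.index = 17 := by omega
    rcases h7 with h7 | h7
    · exact Or.inl h7
    · refine Or.inr ⟨h7, ?_⟩
      rw [h7] at h5
      omega
  rcases hcase with h1 | ⟨h1, h2⟩
  · -- `D` is normal
    have hNt : N = ⊤ := index_eq_one.1 h1
    have : D.Normal := by
      constructor
      intro d hd g
      have h5 : g ∈ N := by rw [hNt]; trivial
      rw [hN, mem_normalizer_iff] at h5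
      exact (h5 d).1 hd
    rcases (inferInstance : D.Normal).eq_bot_or_eq_top with h5 | h5
    · have h6 := hc.e16.card
      rw [h5, card_bot] at h6
      norm_num at h6
    · have h6 := hc.e16.card
      rw [h5, card_top] at h6
      rw [hNt, card_top] at ha
      omega
  · -- order 1360
    have hS : Nat.card S = 1360 := by rw [← hidx, ha, h1, h2]
    have : Fact (Nat.Prime 17) := ⟨by norm_num⟩
    obtain ⟨P⟩ : Nonempty (Sylow 17 S) := inferInstance
    have hP : Nat.card (P : Subgroup S) = 17 := by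
      have h5 : Nat.card (P : Subgroup S) = 17 ^ (Nat.card S).factorization 17 := Sylow.card_eq_multiplicity P
      have h7 : 17 ^ 1 ∣ Nat.card S := by rw [hS]; norm_num
      have h8 := (Nat.Prime.pow_dvd_iff_le_factorization (by norm_num : Nat.Prime 17) hpos.ne').1 h7
      have h9 : ¬ 17 ^ 2 ∣ Nat.card S := by rw [hS]; norm_num
      rw [Nat.Prime.pow_dvd_iff_le_factorization (by norm_num : Nat.Prime 17) hpos.ne'] at h9
      rw [h5, show (Nat.card S).factorization 17 = 1 by omega, pow_one]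
    have hPi : (P : Subgroup S).index = 80 := by
      have h5 := (P : Subgroup S).card_mul_index
      rw [hP, hS] at h5
      omega
    have hn : Nat.card (Sylow 17 S) ∣ 80 := hPi ▸ P.card_dvd_index
    have hm : Nat.card (Sylow 17 S) % 17 = 1 := by
      have h5 := card_sylow_modEq_one 17 S
      exact h5
    have h1' : Nat.card (Sylow 17 S) = 1 := by
      have h5 : Nat.card (Sylow 17 S) ≤ 80 := Nat.le_of_dvd (by norm_num) hn
      obtain ⟨k, hk⟩ := hn
      generalize Nat.card (Sylow 17 S) = n at hm h5 hk ⊢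
      have h6 : n = 1 ∨ n = 18 ∨ n = 35 ∨ n = 52 ∨ n = 69 := by omega
      rcases h6 with h6 | h6 | h6 | h6 | h6 <;> subst h6 <;> omega
    have hss : Subsingleton (Sylow 17 S) := (Nat.card_eq_one_iff_unique.1 h1').1
    have hPn : (P : Subgroup S).Normal := P.normal_of_subsingleton
    rcases hPn.eq_bot_or_eq_top with h5 | h5
    · rw [h5, card_bot] at hP
      norm_num at hP
    · rw [h5, card_top] at hP
      omega

/-- **The row of the groups of Lie type of characteristic two.** -/
theorem E_lie2' {S : Type u} [Group S] [Finite S] [IsSimpleGroup S] (h : IsLieTypeChar 2 S) {D : Subgroup S} {x : S}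
    (hc : Cfg D x) : Nonempty (S ≃* Matrix.ProjectiveSpecialLinearGroup (Fin 2) (GaloisField 2 4)) := by
  have : Fact (Nat.Prime 2) := ⟨Nat.prime_two⟩
  have h34 : (Nat.card S).factorization 2 = 4 ∧
      ∀ z ∈ D, z ≠ 1 → ∀ g : S, g * z = z * g → g ∈ normalizer (D : Set S) := by
    by_cases hsz : Lie.IsoSuzuki S
    · have ht := fun (P : Sylow 2 S) (g : S) => H400.LieLocal.ti_of_suzuki hsz P g
      obtain ⟨P, hP⟩ := of_ti ht hc
      refine ⟨?_, ?_⟩
      · have h5 : Nat.card (P : Subgroup S) = 2 ^ (Nat.card S).factorization 2 := Sylow.card_eq_multiplicity P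
        rw [hP, hc.e16.card] at h5
        exact (Nat.pow_right_injective (le_refl 2) (by simpa using h5)).symm
      · intro z hz hz1 g hg
        have h1 : ∀ g : S, g * z = z * g → ∀ y ∈ D, g⁻¹ * y * g ∈ D := by
          intro g hg y hy
          have h2 := ht P g ⟨z, by rw [hP]; exact hz, hz1, by
            rw [mul_assoc, ← hg, inv_mul_cancel_left, hP]; exact hz⟩ y (by rw [hP]; exact hy)
          rwa [hP] at h2
        rw [mem_normalizer_iff]
        intro e
        refine ⟨fun he => ?_, fun he => ?_⟩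
        · have h3 := h1 g⁻¹ (by rw [inv_mul_eq_iff_eq_mul, ← mul_assoc, hg, mul_inv_cancel_right]) e he
          rwa [inv_inv] at h3
        · have h3 := h1 g hg _ he
          simpa [mul_assoc] using h3
    · have h1 := of_locChar (H400.LieLocal.local_char_of_lie h (fun h1 => hsz h1.2)) hc
      exact ⟨card_two_of_x hc h1.1, h1.2⟩
  obtain ⟨h4, hz⟩ := h34
  rcases H126.OrdEight.lie_eight Nat.prime_two h with h1 | ⟨⟨F, _, _, hF, ⟨e⟩⟩, -⟩
  · exfalso
    rw [h4] at h1
    exact small hc h4 hz (by simpa using h1)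
  · rw [h4] at hF
    have hcard : Fintype.card F = 2 ^ 4 := hF
    have : Finite (GaloisField 2 4) := inferInstance
    have : Fintype (GaloisField 2 4) := Fintype.ofFinite _
    have hG : Fintype.card (GaloisField 2 4) = 2 ^ 4 := by
      rw [← Nat.card_eq_fintype_card]
      exact GaloisField.card 2 4 (by norm_num)
    have f : F ≃+* GaloisField 2 4 := FiniteField.ringEquivOfCardEq (hcard.trans hG.symm)
    exact ⟨e.trans (LieClassical.FieldTransfer.pslCongr f)⟩

theorem E_lie2 {S : Type} [Group S] [Finite S] [IsSimpleGroup S] (h : IsLieTypeChar 2 S) {D : Subgroup S} {x : S}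
    (hc : Cfg D x) : Nonempty (S ≃* Matrix.ProjectiveSpecialLinearGroup (Fin 2) (GaloisField 2 4)) :=
  E_lie2' h hc

end Cfsg.Agent.H961.KS
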